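import Cfsg.Agent.VaughanLee.Count
import Mathlib.Data.Nat.Choose.Basic

/-!
# The derived subgroup of a `p`-group of breadth `b` has order at most `p ^ (b (b + 1) / 2)`
-/

set_option autoImplicit false
set_option linter.style.haveILetI false

noncomputable section

namespace Cfsg.Agent.VaughanLee

open scoped commutatorElement

universe u v
variable {G : Type u} [Group G] {Q : Type v} [Group Q]

/-- `g ↦ π ⁅x, g⁆` as a homomorphism on `K`, its values being central. -/
def commHom (π : G →* Q) (x : G) (K : Subgroup G)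
    (h : ∀ g ∈ K, π ⁅x, g⁆ ∈ Subgroup.center Q) : K →* Q :=
  MonoidHom.mk' (fun g => π ⁅x, (g : G)⁆) fun a c => by
    rw [Subgroup.coe_mul,
      show ⁅x, (a : G) * c⁆ = ⁅x, (a : G)⁆ * ((a : G) * ⁅x, (c : G)⁆ * (a : G)⁻¹) by
        simp only [commutatorElement_def]; group,
      map_mul, map_mul, map_mul, map_inv, Subgroup.mem_center_iff.1 (h c c.2) (π a),
      mul_inv_cancel_right]

theorem commHom_apply (π : G →* Q) (x : G) (K : Subgroup G)
    (h : ∀ g ∈ K, π ⁅x, g⁆ ∈ Subgroup.center Q) (g : K) : commHom π x K h g = π ⁅x, (g : G)⁆ :=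
  rfl

theorem map_comm_swap (π : G →* Q) (x y : G) : π ⁅x, y⁆ = (π ⁅y, x⁆)⁻¹ := by
  rw [← map_inv, commutatorElement_inv]

/-- `g ↦ π ⁅x, g⁆` on the whole group. -/
def commHomTop (π : G →* Q) (x : G) (h : ∀ g : G, π ⁅x, g⁆ ∈ Subgroup.center Q) : G →* Q :=
  (commHom π x ⊤ fun g _ => h g).comp Subgroup.topEquiv.symm.toMonoidHom

theorem commHomTop_apply (π : G →* Q) (x : G) (h : ∀ g : G, π ⁅x, g⁆ ∈ Subgroup.center Q) (g : G) :
    commHomTop π x h g = π ⁅x, g⁆ := rfl

theorem normal_of_le_center {A : Subgroup Q} (h : A ≤ Subgroup.center Q) : A.Normal :=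
  ⟨fun n hn g => by rwa [Subgroup.mem_center_iff.1 (h hn) g, mul_inv_cancel_right]⟩

theorem card_sup_le [Finite Q] (A B : Subgroup Q) [A.Normal] :
    Nat.card ↥(A ⊔ B) ≤ Nat.card A * Nat.card B := by
  have h := Subgroup.relIndex_mul_relIndex ⊥ A (A ⊔ B) bot_le le_sup_left
  rw [Subgroup.relIndex_bot_left, Subgroup.relIndex_bot_left, Subgroup.relIndex_sup_left] at h
  rw [← h]
  exact Nat.mul_le_mul_left _ (Nat.le_of_dvd Nat.card_pos (Subgroup.relIndex_dvd_card A B))

theorem relIndex_pos [Finite G] (C A : Subgroup G) : 0 < C.relIndex A :=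
  Nat.pos_of_ne_zero (Subgroup.index_ne_zero_of_finite (H := C.subgroupOf A))

/-- An index identity along a normal subgroup. -/
theorem relIndex_split [Finite G] (C A B : Subgroup G) [A.Normal] (hAB : A ≤ B) :
    C.relIndex B = ((C ⊓ B) ⊔ A).relIndex B * C.relIndex A := by
  have hC : (C ⊓ B) ⊓ A = C ⊓ A := by rw [inf_assoc, inf_eq_right.2 hAB]
  have h1 := Subgroup.relIndex_mul_relIndex (C ⊓ B) ((C ⊓ B) ⊔ A) B le_sup_left
    (sup_le inf_le_right hAB)
  rw [Subgroup.inf_relIndex_right] at h1
  rw [← h1, mul_comm]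
  congr 1
  have e1 := Subgroup.relIndex_mul_relIndex ⊥ (C ⊓ B) ((C ⊓ B) ⊔ A) bot_le le_sup_left
  have e2 := Subgroup.relIndex_mul_relIndex ⊥ A ((C ⊓ B) ⊔ A) bot_le le_sup_right
  have e3 := Subgroup.relIndex_mul_relIndex ⊥ (C ⊓ A) A bot_le inf_le_right
  have e4 := Subgroup.relIndex_mul_relIndex ⊥ (A ⊓ (C ⊓ B)) (C ⊓ B) bot_le inf_le_right
  rw [Subgroup.relIndex_bot_left, Subgroup.relIndex_bot_left] at e1 e2 e3 e4
  rw [Subgroup.relIndex_sup_right] at e2
  rw [Subgroup.inf_relIndex_right] at e3 e4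
  rw [inf_comm A, hC] at e4
  refine Nat.eq_of_mul_eq_mul_left (Nat.card_pos (α := ↥(C ⊓ B : Subgroup G))) ?_
  rw [e1, ← e2, ← e3, ← e4]
  ring

variable [Finite G] {p : ℕ} [hp : Fact p.Prime]

theorem card_closure_central [Finite Q] (T : Finset Q)
    (hc : ∀ t ∈ T, t ∈ Subgroup.center Q) (hpow : ∀ t ∈ T, t ^ p = 1) :
    Nat.card ↥(Subgroup.closure (T : Set Q)) ≤ p ^ T.card := by
  classical
  induction T using Finset.induction with
  | empty => simp
  | @insert a T ha ih =>
    haveI := normal_of_le_center (A := Subgroup.closure (T : Set Q))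
      ((Subgroup.closure_le _).2 fun t ht => hc t (Finset.mem_insert_of_mem ht))
    rw [Finset.coe_insert, Set.insert_eq, Subgroup.closure_union, ← Subgroup.zpowers_eq_closure,
      sup_comm, Finset.card_insert_of_notMem ha, pow_succ]
    refine (PGroup.card_sup_zpowers_le hp.out.pos
      (by rw [hpow a (Finset.mem_insert_self a T)]; exact one_mem _)).trans
      (Nat.mul_le_mul_right p (ih (fun t ht => hc t (Finset.mem_insert_of_mem ht))
        fun t ht => hpow t (Finset.mem_insert_of_mem ht)))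

/-- A generating set inside a given one, as small as possible. -/
theorem exists_generators_subset (hG : IsPGroup p G) {d : ℕ} (hd : (frattini G).index = p ^ d)
    (A : Set G) (hA : Subgroup.closure A = ⊤) :
    ∃ S : Finset G, (S : Set G) ⊆ A ∧ S.card = d ∧ Subgroup.closure (S : Set G) = ⊤ := by
  classical
  have hpp := hp.out
  have key : ∀ k, ∃ S : Finset G, (S : Set G) ⊆ A ∧ S.card ≤ k ∧
      (frattini G ⊔ Subgroup.closure (S : Set G) = ⊤ ∨
        (frattini G ⊔ Subgroup.closure (S : Set G)).index * p ^ k ≤ p ^ d) := by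
    intro k
    induction k with
    | zero => exact ⟨∅, by simp, le_rfl, Or.inr (by simp [hd])⟩
    | succ k ih =>
      obtain ⟨S, hSA, hS, h⟩ := ih
      by_cases htop : frattini G ⊔ Subgroup.closure (S : Set G) = ⊤
      · exact ⟨S, hSA, hS.trans k.le_succ, Or.inl htop⟩
      replace h := h.resolve_left htop
      obtain ⟨a, haA, ha⟩ : ∃ a ∈ A, a ∉ frattini G ⊔ Subgroup.closure (S : Set G) := by
        by_contra hc
        push Not at hc
        exact htop (top_le_iff.1 (hA ▸ (Subgroup.closure_le _).2 hc))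
      refine ⟨insert a S, by rw [Finset.coe_insert]; exact Set.insert_subset haA hSA,
        (Finset.card_insert_le a S).trans (by omega), Or.inr ?_⟩
      set H := frattini G ⊔ Subgroup.closure (S : Set G) with hH
      set K := frattini G ⊔ Subgroup.closure ((insert a S : Finset G) : Set G) with hK
      have hHK : H ≤ K := sup_le_sup_left (Subgroup.closure_mono (by simp)) _
      obtain ⟨m, hm⟩ := (hG.to_subgroup K).index (H.subgroupOf K)
      replace hm : H.relIndex K = p ^ m := hm
      have hm0 : m ≠ 0 := fun h0 => by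
        rw [h0, pow_zero] at hm
        exact ha (Subgroup.relIndex_eq_one.1 hm (Subgroup.mem_sup_right (Subgroup.subset_closure (by simp))))
      rw [← Subgroup.relIndex_mul_index hHK, hm] at h
      refine le_trans ?_ h
      rw [pow_succ', ← mul_assoc, mul_comm K.index p]
      exact Nat.mul_le_mul_right _ (Nat.mul_le_mul_right _ (Nat.le_self_pow hm0 p))
  obtain ⟨S, hSA, hS, h⟩ := key d
  have hfull : frattini G ⊔ Subgroup.closure (S : Set G) = ⊤ := by
    refine h.elim id fun h => Subgroup.index_eq_one.mp ?_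
    have h1 := Nat.le_of_mul_le_mul_right (by simpa using h :
      (frattini G ⊔ Subgroup.closure (S : Set G)).index * p ^ d ≤ 1 * p ^ d) (pow_pos hpp.pos d)
    exact le_antisymm h1 (Nat.pos_of_ne_zero Subgroup.index_ne_zero_of_finite)
  have hgen : Subgroup.closure (S : Set G) = ⊤ :=
    PGroup.eq_top_of_sup_frattini (by rwa [sup_comm] at hfull)
  refine ⟨S, hSA, le_antisymm hS ?_, hgen⟩
  have := PGroup.index_frattini_le_pow_card hG hgen
  rw [hd] at this
  exact (Nat.pow_le_pow_iff_right hpp.one_lt).mp this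

/-- The part of the derived subgroup below `⁅Φ(G), G⁆`. -/
theorem card_lower_le (hG : IsPGroup p G) (Φ : Subgroup G) [Φ.Normal] (S : Finset G)
    (hS : Subgroup.closure (S : Set G) = ⊤) :
    Nat.card ↥⁅Φ, (⊤ : Subgroup G)⁆ ≤ ∏ s ∈ S, (Subgroup.centralizer ({s} : Set G)).relIndex Φ := by
  classical
  let L : ℕ → Subgroup G := fun k =>
    Nat.rec (motive := fun _ => Subgroup G) Φ (fun _ A => ⁅A, (⊤ : Subgroup G)⁆) k
  have hL : ∀ k, L (k + 1) = ⁅L k, (⊤ : Subgroup G)⁆ := fun k => rfl
  have hLn : ∀ k, (L k).Normal := by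
    intro k
    induction k with
    | zero => assumption
    | succ k ih =>
      haveI := ih
      rw [hL k]; exact @Subgroup.commutator_normal _ _ (L k) ⊤ ih inferInstance
  have hdec : ∀ k, L (k + 1) ≤ L k := fun k => by
    haveI := hLn k
    rw [hL]; exact Subgroup.commutator_le_left _ _
  haveI : Group.IsNilpotent G := hG.isNilpotent
  obtain ⟨N, hN⟩ := Subgroup.nilpotent_iff_lowerCentralSeries.1 ‹Group.IsNilpotent G›
  have hLle : ∀ k, L k ≤ (⊤ : Subgroup G).lowerCentralSeries k := by
    intro k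
    induction k with
    | zero => exact le_top
    | succ k ih =>
      rw [hL, Subgroup.lowerCentralSeries_succ]
      exact Subgroup.commutator_mono ih le_rfl
  suffices ∀ j k, N ≤ k + j →
      Nat.card (L (k + 1)) ≤ ∏ s ∈ S, (Subgroup.centralizer ({s} : Set G)).relIndex (L k) from
    this N 0 (by omega)
  intro j
  induction j with
  | zero =>
    intro k hk
    have h1 : L (k + 1) = ⊥ := le_bot_iff.1 (hN ▸ (hLle _).trans
      (Subgroup.lowerCentralSeries_antitone _ (show N ≤ k + 1 by omega)))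
    rw [h1, Subgroup.card_bot]
    exact Finset.one_le_prod' fun s _ => relIndex_pos _ _
  | succ j ih =>
    intro k hk
    haveI := hLn (k + 2)
    haveI := hLn (k + 1)
    set π := QuotientGroup.mk' (L (k + 2)) with hπ
    have hcen : ∀ a ∈ L (k + 1), π a ∈ Subgroup.center (G ⧸ L (k + 2)) := by
      intro a ha
      rw [Subgroup.mem_center_iff]
      intro q
      obtain ⟨g, rfl⟩ := QuotientGroup.mk'_surjective _ q
      symm
      rw [← commutatorElement_eq_one_iff_mul_comm, ← map_commutatorElement, hπ,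
        QuotientGroup.mk'_apply, QuotientGroup.eq_one_iff, hL (k + 1)]
      exact Subgroup.commutator_mem_commutator ha (Subgroup.mem_top g)
    have hmem : ∀ a ∈ L k, ∀ g : G, ⁅a, g⁆ ∈ L (k + 1) := fun a ha g => by
      rw [hL]; exact Subgroup.commutator_mem_commutator ha (Subgroup.mem_top g)
    have hcs : ∀ s : G, ∀ a ∈ L k, π ⁅s, a⁆ ∈ Subgroup.center (G ⧸ L (k + 2)) := fun s a ha => by
      rw [map_comm_swap]
      exact inv_mem (hcen _ (hmem a ha s))
    let ψ : G → Subgroup (G ⧸ L (k + 2)) := fun s => (commHom π s (L k) (hcs s)).range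
    have hψcen : ∀ s, ψ s ≤ Subgroup.center (G ⧸ L (k + 2)) := by
      rintro s _ ⟨a, rfl⟩
      exact hcs s a a.2
    have hψcard : ∀ s, Nat.card (ψ s) ≤
        ((Subgroup.centralizer ({s} : Set G) ⊓ L k) ⊔ L (k + 1)).relIndex (L k) := by
      intro s
      rw [← Subgroup.index_ker]
      refine Nat.le_of_dvd (relIndex_pos _ _)
        (Subgroup.index_dvd_of_le
          (H := ((Subgroup.centralizer ({s} : Set G) ⊓ L k) ⊔ L (k + 1)).subgroupOf (L k)) ?_)
      intro a ha
      rw [Subgroup.mem_subgroupOf] at ha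
      obtain ⟨c, hc, l, hl, he⟩ := Subgroup.mem_sup_of_normal_right.1 ha
      have hc' := Subgroup.mem_inf.1 hc
      rw [MonoidHom.mem_ker,
        show a = (⟨c, hc'.2⟩ : L k) * ⟨l, hdec k hl⟩ from Subtype.ext he.symm, map_mul,
        commHom_apply, commHom_apply,
        show ⁅s, c⁆ = 1 from commutatorElement_eq_one_iff_mul_comm.2
          (Subgroup.mem_centralizer_singleton_iff.1 hc'.1).symm,
        map_one, one_mul, map_comm_swap, inv_eq_one, hπ, QuotientGroup.mk'_apply,
        QuotientGroup.eq_one_iff, hL (k + 1)]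
      exact Subgroup.commutator_mem_commutator hl (Subgroup.mem_top s)
    have hsup : ∀ T : Finset G, (⨆ s ∈ T, ψ s) ≤ Subgroup.center (G ⧸ L (k + 2)) ∧
        Nat.card ↥(⨆ s ∈ T, ψ s) ≤ ∏ s ∈ T,
          ((Subgroup.centralizer ({s} : Set G) ⊓ L k) ⊔ L (k + 1)).relIndex (L k) := by
      intro T
      induction T using Finset.induction with
      | empty =>
        rw [Finset.prod_empty, show (⨆ s ∈ (∅ : Finset G), ψ s) = ⊥ by simp, Subgroup.card_bot]
        exact ⟨bot_le, le_rfl⟩
      | @insert a T ha ihT =>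
        rw [Finset.iSup_insert, Finset.prod_insert ha]
        refine ⟨sup_le (hψcen a) ihT.1, ?_⟩
        haveI := normal_of_le_center (hψcen a)
        exact (card_sup_le _ _).trans (Nat.mul_le_mul (hψcard a) ihT.2)
    have hgen : (L (k + 1)).map π ≤ ⨆ s ∈ S, ψ s := by
      rw [hL k, Subgroup.map_le_iff_le_comap, Subgroup.commutator_le]
      intro a ha g _
      let φ := commHomTop π a fun g => hcen _ (hmem a ha g)
      have : Subgroup.closure (S : Set G) ≤ (⨆ s ∈ S, ψ s).comap φ := by
        rw [Subgroup.closure_le]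
        intro s hs
        rw [SetLike.mem_coe, Subgroup.mem_comap, commHomTop_apply, map_comm_swap]
        exact inv_mem (le_biSup ψ (Finset.mem_coe.1 hs) ⟨⟨a, ha⟩, rfl⟩)
      exact this (hS ▸ Subgroup.mem_top g)
    have hcard : Nat.card (L (k + 1)) = Nat.card (L (k + 2)) * Nat.card ↥((L (k + 1)).map π) := by
      rw [← Subgroup.relIndex_ker, hπ, QuotientGroup.ker_mk', ← Subgroup.relIndex_bot_left (H := L (k + 2)),
        ← Subgroup.relIndex_bot_left (H := L (k + 1)),
        Subgroup.relIndex_mul_relIndex _ _ _ bot_le (hdec (k + 1))]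
    rw [hcard]
    refine (Nat.mul_le_mul (ih (k + 1) (by omega))
      ((Subgroup.card_le_of_le hgen).trans (hsup S).2)).trans_eq ?_
    rw [← Finset.prod_mul_distrib]
    refine Finset.prod_congr rfl fun s _ => ?_
    conv_rhs => rw [relIndex_split _ (L (k + 1)) (L k) (hdec k)]
    rw [mul_comm]

/-- The top part of the derived subgroup. -/
theorem card_top_le [Finite Q] (π : G →* Q) (Φ : Subgroup G)
    (hpow : ∀ g : G, g ^ p ∈ Φ) (hcen : ∀ x g : G, π ⁅x, g⁆ ∈ Subgroup.center Q)
    (hΦ : ∀ x : G, ∀ g ∈ Φ, π ⁅x, g⁆ = 1) (a : G) (T : Finset G)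
    (hgen : Subgroup.closure (insert a (T : Set G)) = ⊤) :
    Nat.card ↥((commutator G).map π) ≤
      (Subgroup.centralizer ({a} : Set G) ⊔ Φ).index * p ^ T.card.choose 2 := by
  classical
  let W : Set G → Subgroup Q := fun A => (⁅Subgroup.closure A, Subgroup.closure A⁆).map π
  have hW : ∀ A, W A ≤ Subgroup.center Q := fun A => by
    refine Subgroup.map_le_iff_le_comap.2 (Subgroup.commutator_le.2 fun x _ y _ => ?_)
    exact Subgroup.mem_comap.2 (hcen x y)
  have hins : ∀ (x : G) (A : Set G), W (insert x A) ≤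
      W A ⊔ (Subgroup.closure A).map (commHomTop π x (hcen x)) := by
    intro x A
    set D := W A ⊔ (Subgroup.closure A).map (commHomTop π x (hcen x)) with hD
    have h1 : ∀ t ∈ A, π ⁅x, t⁆ ∈ D := fun t ht =>
      Subgroup.mem_sup_right ⟨t, Subgroup.subset_closure ht, rfl⟩
    have hgen2 : ∀ y ∈ insert x A, ∀ z ∈ Subgroup.closure (insert x A), π ⁅y, z⁆ ∈ D := by
      intro y hy
      suffices Subgroup.closure (insert x A) ≤ D.comap (commHomTop π y (hcen y)) from
        fun z hz => this hz
      rw [Subgroup.closure_le]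
      intro z hz
      rw [SetLike.mem_coe, Subgroup.mem_comap, commHomTop_apply]
      rcases hy with rfl | hy <;> rcases hz with rfl | hz
      · rw [commutatorElement_self, map_one]; exact one_mem _
      · exact h1 z hz
      · rw [map_comm_swap]; exact inv_mem (h1 y hy)
      · exact Subgroup.mem_sup_left (Subgroup.mem_map_of_mem π
          (Subgroup.commutator_mem_commutator (Subgroup.subset_closure hy) (Subgroup.subset_closure hz)))
    refine Subgroup.map_le_iff_le_comap.2 (Subgroup.commutator_le.2 fun y hy z hz => ?_)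
    have : Subgroup.closure (insert x A) ≤ D.comap (commHomTop π z (hcen z)) := by
      rw [Subgroup.closure_le]
      intro t ht
      rw [SetLike.mem_coe, Subgroup.mem_comap, commHomTop_apply, map_comm_swap]
      exact inv_mem (hgen2 t ht z hz)
    rw [Subgroup.mem_comap, map_comm_swap]
    exact inv_mem (this hy)
  have hTW : ∀ A : Finset G, Nat.card ↥(W (A : Set G)) ≤ p ^ A.card.choose 2 := by
    intro A
    induction A using Finset.induction with
    | empty =>
      simp only [W, Finset.coe_empty, Subgroup.closure_empty, Subgroup.commutator_bot_left,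
        Subgroup.map_bot, Subgroup.card_bot]
      exact Nat.one_le_pow _ _ hp.out.pos
    | @insert x A hx ih =>
      rw [Finset.coe_insert, Finset.card_insert_of_notMem hx]
      haveI := normal_of_le_center (hW (A : Set G))
      refine (Subgroup.card_le_of_le (hins x A)).trans ((card_sup_le _ _).trans ?_)
      rw [MonoidHom.map_closure, ← Finset.coe_image,
        show (A.card + 1).choose 2 = A.card.choose 2 + A.card by
          rw [Nat.choose_succ_succ, Nat.choose_one_right, add_comm], pow_add]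
      refine Nat.mul_le_mul ih ((card_closure_central (p := p) _ ?_ ?_).trans
        (Nat.pow_le_pow_right hp.out.pos Finset.card_image_le))
      · intro t ht
        obtain ⟨y, -, rfl⟩ := Finset.mem_image.1 ht
        exact hcen x y
      · intro t ht
        obtain ⟨y, -, rfl⟩ := Finset.mem_image.1 ht
        rw [← map_pow]
        exact hΦ x _ (hpow y)
  haveI := normal_of_le_center (hW (T : Set G))
  have h1 : (commutator G).map π ≤
      W (T : Set G) ⊔ (commHomTop π a (hcen a)).range := by
    refine le_trans ?_ ((hins a T).trans (sup_le_sup_left (Subgroup.map_le_range _ _) _))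
    show _ ≤ (⁅Subgroup.closure _, Subgroup.closure _⁆).map π
    rw [hgen, commutator_def]
  refine (Subgroup.card_le_of_le h1).trans ((card_sup_le _ _).trans ?_)
  rw [mul_comm]
  refine Nat.mul_le_mul ?_ (hTW T)
  rw [← Subgroup.index_ker]
  refine Nat.le_of_dvd (Nat.pos_of_ne_zero Subgroup.index_ne_zero_of_finite)
    (Subgroup.index_dvd_of_le (sup_le (fun c hc => ?_) fun g hg => hΦ a g hg))
  rw [MonoidHom.mem_ker, commHomTop_apply, commutatorElement_eq_one_iff_mul_comm.2
    (Subgroup.mem_centralizer_singleton_iff.1 hc).symm, map_one]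

theorem exponent_le {k b : ℕ} (hk : k ≤ b) :
    (k + 1) * b + k.choose 2 ≤ k * k + b * (b + 1) / 2 := by
  obtain ⟨d, rfl⟩ := Nat.exists_eq_add_of_le hk
  rw [Nat.choose_two_right]
  obtain ⟨u, hu⟩ : 2 ∣ k * (k - 1) := by
    rcases k with _ | k
    · simp
    · rw [Nat.add_sub_cancel, mul_comm]; exact (Nat.even_mul_succ_self k).two_dvd
  obtain ⟨v, hv⟩ := (Nat.even_mul_succ_self (k + d)).two_dvd
  rw [hu, hv, Nat.mul_div_cancel_left _ two_pos, Nat.mul_div_cancel_left _ two_pos]
  rcases k with _ | k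
  · nlinarith
  · rw [Nat.add_sub_cancel] at hu
    have h1 := Nat.le_mul_self d
    nlinarith

/-- The bound when no maximal subgroup has the same derived subgroup. -/
theorem card_commutator_le_of_minimal (hG : IsPGroup p G)
    (hmin : ∀ H : Subgroup G, IsCoatom H → ¬ commutator G ≤ ⁅H, H⁆) (b : ℕ)
    (hb : ∀ x : G, (Subgroup.centralizer ({x} : Set G)).index ≤ p ^ b) :
    Nat.card (commutator G) ≤ p ^ (b * (b + 1) / 2) := by
  classical
  have hpp := hp.out
  obtain ⟨n, hn⟩ := PGroup.exists_index_frattini_eq_pow hG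
  set Φ := frattini G with hΦ
  have hcΦ : commutator G ≤ Φ := PGroup.commutator_le_frattini hG
  haveI : Φ.Normal := PGroup.normal_of_commutator_le hcΦ
  set F : Set G := {v | v ∉ Φ ∧
    p ^ (n - 1) ≤ (Subgroup.centralizer ({v} : Set G) ⊔ Φ).index} with hF
  set D := Φ ⊔ Subgroup.closure F with hD
  have hDi : D.index ≤ p := by
    by_contra hgt
    push Not at hgt
    haveI : D.Normal := PGroup.normal_of_commutator_le (hcΦ.trans le_sup_left)
    obtain ⟨j, hj⟩ := hG.index D
    have hj2 : 2 ≤ j := by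
      rw [hj] at hgt
      have := (Nat.pow_lt_pow_iff_right hpp.one_lt).1 ((pow_one p).trans_lt hgt)
      omega
    obtain ⟨U, hUc, hDU⟩ := Sylow.exists_subgroup_card_pow_prime_le p
      (H := (⊥ : Subgroup (G ⧸ D))) (n := 0) (m := j - 2)
      (by rw [← Subgroup.index_eq_card, hj]; exact pow_dvd_pow p (Nat.sub_le _ _))
      (by rw [Subgroup.card_bot, pow_zero]) (Nat.zero_le _)
    set U' := U.comap (QuotientGroup.mk' D)
    have hDU' : D ≤ U' := fun x hx => by
      rw [Subgroup.mem_comap, show QuotientGroup.mk' D x = 1 from (QuotientGroup.eq_one_iff x).2 hx]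
      exact U.one_mem
    have hUi : U'.index = p ^ 2 := by
      rw [Subgroup.index_comap_of_surjective _ (QuotientGroup.mk'_surjective D)]
      have h1 := Subgroup.card_mul_index U
      rw [← Subgroup.index_eq_card D, hj, hUc,
        show p ^ j = p ^ (j - 2) * p ^ 2 by rw [← pow_add]; congr 1; omega] at h1
      exact Nat.eq_of_mul_eq_mul_left (pow_pos hpp.pos _) h1
    obtain ⟨v, hv, hvc⟩ := exists_small_cover hG hmin hn U' (le_sup_left.trans hDU') hUi
    exact hv (hDU' (Subgroup.mem_sup_right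
      (Subgroup.subset_closure ⟨fun h => hv (le_sup_left.trans hDU' h), hvc⟩)))
  obtain ⟨a₀, ha₀⟩ : ∃ a, Subgroup.closure (insert a F) = ⊤ := by
    suffices ∃ a, Φ ⊔ Subgroup.closure (insert a F) = ⊤ by
      obtain ⟨a, ha⟩ := this
      exact ⟨a, PGroup.eq_top_of_sup_frattini (by rwa [sup_comm])⟩
    by_cases htop : D = ⊤
    · exact ⟨1, top_le_iff.1 (htop ▸ sup_le_sup_left (Subgroup.closure_mono (Set.subset_insert _ _)) _)⟩
    obtain ⟨a, -, ha⟩ := SetLike.exists_of_lt (lt_top_iff_ne_top.2 htop)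
    refine ⟨a, ?_⟩
    have hDp : D.index = p := by
      obtain ⟨j, hj⟩ := hG.index D
      refine le_antisymm hDi ?_
      rw [hj]
      refine Nat.le_self_pow ?_ p
      intro h0
      rw [h0, pow_zero, Subgroup.index_eq_one] at hj
      exact htop hj
    refine (isCoatom_of_index hDp).2 _ (lt_of_le_of_ne
      (sup_le_sup_left (Subgroup.closure_mono (Set.subset_insert _ _)) _) fun e => ha ?_)
    show a ∈ D
    rw [e]
    exact Subgroup.mem_sup_right (Subgroup.subset_closure (Set.mem_insert _ _))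
  obtain ⟨S, hSA, hSc, hSgen⟩ := exists_generators_subset hG hn _ ha₀
  rcases n with _ | n
  · have : Φ = ⊤ := Subgroup.index_eq_one.1 (by rw [hn, pow_zero])
    rw [Finset.card_eq_zero.1 hSc, Finset.coe_empty, Subgroup.closure_empty] at hSgen
    haveI : Subsingleton G := Subgroup.subsingleton_iff.1 (subsingleton_of_bot_eq_top hSgen)
    rw [show Nat.card (commutator G) = 1 from Nat.card_of_subsingleton 1]
    exact Nat.one_le_pow _ _ hpp.pos
  rw [Nat.add_sub_cancel] at hF
  obtain ⟨a, haS, hrest⟩ : ∃ a ∈ S, ∀ s ∈ S, s ≠ a → s ∈ F := by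
    by_cases h : a₀ ∈ S
    · exact ⟨a₀, h, fun s hs hne => ((hSA hs).resolve_left hne)⟩
    · obtain ⟨a, ha⟩ : S.Nonempty := Finset.card_pos.1 (by omega)
      exact ⟨a, ha, fun s hs _ => (hSA hs).resolve_left fun e => h (e ▸ hs)⟩
  set T := S.erase a with hT
  have hTc : T.card = n := by rw [hT, Finset.card_erase_of_mem haS, hSc]; omega
  set C : G → Subgroup G := fun s => Subgroup.centralizer ({s} : Set G) with hC
  have hsplit : ∀ s, (C s ⊔ Φ).index * (C s).relIndex Φ ≤ p ^ b := fun s => by
    have h := relIndex_split (C s) Φ ⊤ le_top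
    rw [inf_top_eq, Subgroup.relIndex_top_right, Subgroup.relIndex_top_right] at h
    exact h ▸ hb s
  -- the top
  haveI hXn : (⁅Φ, (⊤ : Subgroup G)⁆).Normal := inferInstance
  set π := QuotientGroup.mk' ⁅Φ, (⊤ : Subgroup G)⁆ with hπ
  have hΦ1 : ∀ x : G, ∀ g ∈ Φ, π ⁅x, g⁆ = 1 := fun x g hg => by
    rw [map_comm_swap, inv_eq_one, hπ, QuotientGroup.mk'_apply, QuotientGroup.eq_one_iff]
    exact Subgroup.commutator_mem_commutator hg (Subgroup.mem_top x)
  have hcen : ∀ x g : G, π ⁅x, g⁆ ∈ Subgroup.center _ := fun x g => by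
    rw [Subgroup.mem_center_iff]
    intro q
    obtain ⟨y, rfl⟩ := QuotientGroup.mk'_surjective _ q
    rw [← commutatorElement_eq_one_iff_mul_comm, ← map_commutatorElement]
    exact hΦ1 y _ (PGroup.commutatorElement_mem_frattini hG x g)
  have htop := card_top_le (p := p) π Φ (fun g => PGroup.pow_mem_frattini hG g) hcen hΦ1 a T
    (by rw [hT, Finset.coe_erase, Set.insert_sdiff_singleton,
      Set.insert_eq_of_mem (Finset.mem_coe.2 haS), hSgen])
  have hlow := card_lower_le hG Φ S hSgen
  rw [← Finset.mul_prod_erase S _ haS, ← hT] at hlow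
  have hcard : Nat.card (commutator G) =
      Nat.card ↥⁅Φ, (⊤ : Subgroup G)⁆ * Nat.card ↥((commutator G).map π) := by
    rw [← Subgroup.relIndex_ker, hπ, QuotientGroup.ker_mk',
      ← Subgroup.relIndex_bot_left (H := ⁅Φ, (⊤ : Subgroup G)⁆),
      ← Subgroup.relIndex_bot_left (H := commutator G),
      Subgroup.relIndex_mul_relIndex ⊥ ⁅Φ, (⊤ : Subgroup G)⁆ (commutator G) bot_le
        (Subgroup.commutator_mono le_top le_rfl : ⁅Φ, (⊤ : Subgroup G)⁆ ≤ commutator G)]
  have hprod : (∏ s ∈ T, (C s).relIndex Φ) * p ^ (n * n) ≤ p ^ (n * b) := by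
    calc (∏ s ∈ T, (C s).relIndex Φ) * p ^ (n * n)
        = ∏ s ∈ T, (C s).relIndex Φ * p ^ n := by
          rw [Finset.prod_mul_distrib, Finset.prod_const, hTc, ← pow_mul]
      _ ≤ ∏ _s ∈ T, p ^ b := Finset.prod_le_prod' fun s hs => by
          obtain ⟨hne, hsS⟩ := Finset.mem_erase.1 hs
          refine le_trans ?_ (hsplit s)
          rw [mul_comm]
          exact Nat.mul_le_mul_right _ (hrest s hsS hne).2
      _ = p ^ (n * b) := by rw [Finset.prod_const, hTc, ← pow_mul, mul_comm]
  have hnb : n ≤ b := by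
    by_contra hlt
    push Not at hlt
    obtain ⟨s, hs⟩ : T.Nonempty := Finset.card_pos.1 (by omega)
    obtain ⟨hne, hsS⟩ := Finset.mem_erase.1 hs
    have h1 := (Nat.le_mul_of_pos_right _ (Nat.pos_of_ne_zero
      (Subgroup.index_ne_zero_of_finite (H := (C s).subgroupOf Φ)))).trans (hsplit s)
    exact absurd ((hrest s hsS hne).2.trans h1)
      (Nat.not_le.2 (Nat.pow_lt_pow_right hpp.one_lt hlt))
  refine Nat.le_of_mul_le_mul_right ?_ (pow_pos hpp.pos (n * n))
  calc Nat.card (commutator G) * p ^ (n * n)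
      ≤ ((C a).relIndex Φ * ∏ s ∈ T, (C s).relIndex Φ) *
          ((C a ⊔ Φ).index * p ^ n.choose 2) * p ^ (n * n) := by
        rw [hcard]
        exact Nat.mul_le_mul_right _ (Nat.mul_le_mul hlow (hTc ▸ htop))
    _ = ((C a ⊔ Φ).index * (C a).relIndex Φ) *
          ((∏ s ∈ T, (C s).relIndex Φ) * p ^ (n * n)) * p ^ n.choose 2 := by ring
    _ ≤ p ^ b * p ^ (n * b) * p ^ n.choose 2 :=
        Nat.mul_le_mul_right _ (Nat.mul_le_mul (hsplit a) hprod)
    _ = p ^ ((n + 1) * b + n.choose 2) := by rw [← pow_add, ← pow_add]; congr 1; ring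
    _ ≤ p ^ (n * n + b * (b + 1) / 2) := Nat.pow_le_pow_right hpp.pos (exponent_le hnb)
    _ = p ^ (b * (b + 1) / 2) * p ^ (n * n) := by rw [← pow_add, add_comm]

/-- The bound in general. -/
theorem card_commutator_le (hG : IsPGroup p G) (b : ℕ)
    (hb : ∀ x : G, (Subgroup.centralizer ({x} : Set G)).index ≤ p ^ b) :
    Nat.card (commutator G) ≤ p ^ (b * (b + 1) / 2) := by
  classical
  obtain ⟨K, hK, hmin⟩ := ({K : Subgroup G | commutator G ≤ ⁅K, K⁆}.toFinite).exists_minimal
    ⟨⊤, show commutator G ≤ ⁅(⊤ : Subgroup G), ⊤⁆ from le_rfl⟩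
  have hmap : ∀ (A : Subgroup K), (⁅A, A⁆).map K.subtype = ⁅A.map K.subtype, A.map K.subtype⁆ :=
    fun A => Subgroup.map_commutator _ _ _
  have htop : (commutator K).map K.subtype = ⁅K, K⁆ := by
    rw [commutator_def, hmap, ← MonoidHom.range_eq_map, Subgroup.range_subtype]
  have h := card_commutator_le_of_minimal (hG.to_subgroup K) (fun H hH hle => hH.1 ?_) b fun x => ?_
  · refine le_trans ?_ h
    rw [← Subgroup.card_map_of_injective (K := commutator K) (f := K.subtype) K.subtype_injective, htop]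
    exact Subgroup.card_le_of_le hK
  · have h1 : commutator G ≤ ⁅H.map K.subtype, H.map K.subtype⁆ := by
      rw [← hmap]
      exact hK.trans (htop ▸ Subgroup.map_mono hle)
    have := hmin h1 (Subgroup.map_subtype_le H)
    exact top_le_iff.1 fun y _ => by
      obtain ⟨z, hz, hzy⟩ := this y.2
      exact (Subtype.ext hzy : z = y) ▸ hz
  · refine le_trans (Nat.le_of_dvd (Nat.pos_of_ne_zero Subgroup.index_ne_zero_of_finite) ?_)
      ((Nat.le_of_eq rfl).trans ((?_ : (Subgroup.centralizer ({(x : G)} : Set G)).relIndex K ≤ _).trans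
        (hb x)))
    · refine Subgroup.index_dvd_of_le fun y hy => ?_
      rw [Subgroup.mem_subgroupOf, Subgroup.mem_centralizer_singleton_iff] at hy
      exact Subgroup.mem_centralizer_singleton_iff.2 (Subtype.ext hy)
    · rw [← Subgroup.relIndex_top_right]
      exact Subgroup.relIndex_le_of_le_right le_top (by
        rw [Subgroup.relIndex_top_right]; exact Subgroup.index_ne_zero_of_finite)

end Cfsg.Agent.VaughanLee
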