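import Cfsg.Agent.PGroup.Frattini
import Cfsg.Agent.Char.Linear

/-!
# Counting maximal subgroups over centralisers

In a finite `p`-group every maximal subgroup of which has smaller derived subgroup, the elements
whose centraliser covers only one dimension modulo the Frattini subgroup generate a subgroup of
index at most `p`.
-/

set_option autoImplicit false
set_option linter.style.haveILetI false

noncomputable section

namespace Cfsg.Agent.VaughanLee

open scoped commutatorElement

universe u
variable {G : Type u} [Group G] [Finite G] {p : ℕ} [Fact p.Prime]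

/-- Linear characters trivial on a subgroup over the derived subgroup are as many as its index. -/
theorem card_hom_over (D : Subgroup G) (hD : commutator G ≤ D) :
    Nat.card {w : G →* ℂˣ // D ≤ w.ker} = D.index := by
  haveI : D.Normal := PGroup.normal_of_commutator_le hD
  have hc : commutator (G ⧸ D) = ⊥ := by
    rw [commutator_def, ← Subgroup.map_top_of_surjective _ (QuotientGroup.mk'_surjective D),
      ← Subgroup.map_commutator, ← commutator_def, Subgroup.map_eq_bot_iff, QuotientGroup.ker_mk']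
    exact hD
  have h1 : Nat.card (G ⧸ D →* ℂˣ) = D.index := by
    rw [Char.card_monoidHom_complex, hc, Subgroup.index_bot, Subgroup.index_eq_card]
  rw [← h1]
  exact Nat.card_congr
    { toFun := fun w => QuotientGroup.lift D w.1 w.2
      invFun := fun v => ⟨v.comp (QuotientGroup.mk' D), fun x hx => by
        rw [MonoidHom.mem_ker, MonoidHom.comp_apply, QuotientGroup.mk'_apply,
          (QuotientGroup.eq_one_iff x).2 hx, map_one]⟩
      left_inv := fun w => Subtype.ext (MonoidHom.ext fun x => rfl)
      right_inv := fun v => MonoidHom.ext fun q => by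
        obtain ⟨g, rfl⟩ := QuotientGroup.mk_surjective q
        rfl }

/-- The kernel of a nontrivial linear character of exponent `p` has index `p`. -/
theorem index_ker (hG : IsPGroup p G) {w : G →* ℂˣ} (hw : frattini G ≤ w.ker) (hw1 : w ≠ 1) :
    w.ker.index = p := by
  have hp := (Fact.out : p.Prime)
  have hne : w.ker.index ≠ 1 := fun h => hw1 (MonoidHom.ker_eq_top_iff.1 (Subgroup.index_eq_one.1 h))
  obtain ⟨k, hk⟩ := hG.index w.ker
  haveI : NeZero p := ⟨hp.ne_zero⟩
  have hle : w.ker.index ≤ p := by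
    rw [Subgroup.index_ker]
    calc Nat.card w.range ≤ Nat.card (rootsOfUnity p ℂ) := Subgroup.card_le_of_le (fun u hu => by
          obtain ⟨x, rfl⟩ := hu
          rw [mem_rootsOfUnity, ← map_pow]
          exact MonoidHom.mem_ker.1 (hw (PGroup.pow_mem_frattini hG x)))
      _ = p := HasEnoughRootsOfUnity.natCard_rootsOfUnity ℂ p
  have hk0 : k ≠ 0 := fun h => hne (by rw [hk, h, pow_zero])
  rw [hk] at hle ⊢
  have hk1 : k ≤ 1 := (Nat.pow_le_pow_iff_right hp.one_lt).1 (hle.trans (pow_one p).ge)
  rw [show k = 1 by omega, pow_one]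

theorem isCoatom_of_index {H : Subgroup G} (h : H.index = p) : IsCoatom H := by
  have hp := (Fact.out : p.Prime)
  refine ⟨fun e => hp.ne_one (by rw [← h, e, Subgroup.index_top]), fun M hM => ?_⟩
  rcases hp.eq_one_or_self_of_dvd _ (h ▸ Subgroup.index_dvd_of_le hM.le) with h1 | h1
  · exact Subgroup.index_eq_one.1 h1
  · exact absurd (h1.trans h.symm) (Subgroup.index_strictAnti hM).ne

/-- For a maximal subgroup with smaller derived subgroup, only a proper subgroup of it has
centralisers outside it. -/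
theorem exists_bad_subgroup {H : Subgroup G} (hH : IsCoatom H)
    (hd : ¬ commutator G ≤ ⁅H, H⁆) (hHn : H.Normal) :
    ∃ R : Subgroup G, R < H ∧
      ∀ v ∈ H, v ∉ R → Subgroup.centralizer ({v} : Set G) ≤ H := by
  haveI := hHn
  set π := QuotientGroup.mk' ⁅H, H⁆ with hπ
  have hcomm : ∀ v ∈ H, ∀ c : G, c ∉ H → c ∈ (Subgroup.centralizer ({π v} : Set _)).comap π →
      π v ∈ Subgroup.center (G ⧸ ⁅H, H⁆) := by
    intro v hv c hcH hc
    have hle : H ≤ (Subgroup.centralizer ({π v} : Set _)).comap π := by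
      intro h hh
      rw [Subgroup.mem_comap, Subgroup.mem_centralizer_singleton_iff, ← map_mul, ← map_mul]
      refine QuotientGroup.eq.2 ?_
      have := Subgroup.commutator_mem_commutator (H.inv_mem hv) (H.inv_mem hh)
      rwa [show (h * v)⁻¹ * (v * h) = ⁅v⁻¹, h⁻¹⁆ by rw [commutatorElement_def]; group]
    have htop := hH.2 _ (lt_of_le_of_ne hle fun h => hcH (h ▸ hc))
    rw [Subgroup.mem_center_iff]
    intro q
    obtain ⟨g, rfl⟩ := QuotientGroup.mk'_surjective _ q
    exact Subgroup.mem_centralizer_singleton_iff.1 (Subgroup.mem_comap.1 (htop ▸ Subgroup.mem_top g))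
  refine ⟨H ⊓ (Subgroup.center (G ⧸ ⁅H, H⁆)).comap π, lt_of_le_of_ne inf_le_left fun h => hd ?_, ?_⟩
  · have hle : H ≤ (Subgroup.center (G ⧸ ⁅H, H⁆)).comap π := h.ge.trans inf_le_right
    obtain ⟨c, -, hc⟩ := SetLike.exists_of_lt hH.1.lt_top
    have hcc : π c ∈ Subgroup.center (G ⧸ ⁅H, H⁆) := by
      have htop : (Subgroup.centralizer ({π c} : Set _)).comap π = ⊤ := by
        refine hH.2 _ (lt_of_le_of_ne (fun x hx => ?_) fun e => hc ?_)
        · rw [Subgroup.mem_comap, Subgroup.mem_centralizer_singleton_iff]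
          exact (Subgroup.mem_center_iff.1 (Subgroup.mem_comap.1 (hle hx)) (π c)).symm
        · rw [e, Subgroup.mem_comap, Subgroup.mem_centralizer_singleton_iff]
      rw [Subgroup.mem_center_iff]
      intro q
      obtain ⟨g, rfl⟩ := QuotientGroup.mk'_surjective _ q
      exact Subgroup.mem_centralizer_singleton_iff.1
        (Subgroup.mem_comap.1 (htop ▸ Subgroup.mem_top g))
    have hall : (Subgroup.center (G ⧸ ⁅H, H⁆)).comap π = ⊤ :=
      hH.2 _ (lt_of_le_of_ne hle fun e => hc (e ▸ Subgroup.mem_comap.2 hcc))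
    rw [commutator_eq_closure, Subgroup.closure_le]
    rintro _ ⟨x, y, rfl⟩
    refine (QuotientGroup.eq_one_iff _).1 ?_
    change π ⁅x, y⁆ = 1
    rw [map_commutatorElement, commutatorElement_eq_one_iff_mul_comm]
    exact Subgroup.mem_center_iff.1 (Subgroup.mem_comap.1 (hall ▸ Subgroup.mem_top y)) _
  · intro v hv hvR
    by_contra hle
    obtain ⟨c, hc, hcH⟩ := SetLike.not_le_iff_exists.1 hle
    refine hvR (Subgroup.mem_inf.2 ⟨hv, Subgroup.mem_comap.2 (hcomm v hv c hcH ?_)⟩)
    rw [Subgroup.mem_comap, Subgroup.mem_centralizer_singleton_iff, ← map_mul, ← map_mul,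
      Subgroup.mem_centralizer_singleton_iff.1 hc]

/-- Main count: outside a subgroup of index `p ^ 2` some centraliser covers at most one
dimension. -/
theorem exists_small_cover (hG : IsPGroup p G)
    (hmin : ∀ H : Subgroup G, IsCoatom H → ¬ commutator G ≤ ⁅H, H⁆)
    {n : ℕ} (hn : (frattini G).index = p ^ n) (U : Subgroup G) (hU : frattini G ≤ U)
    (hUi : U.index = p ^ 2) :
    ∃ v, v ∉ U ∧ p ^ (n - 1) ≤ (Subgroup.centralizer ({v} : Set G) ⊔ frattini G).index := by
  classical
  have hp := (Fact.out : p.Prime)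
  letI := Fintype.ofFinite G
  haveI : Finite (G →* ℂˣ) := Char.monoidHom_complex_finite
  letI := Fintype.ofFinite (G →* ℂˣ)
  have hΦ : commutator G ≤ frattini G := PGroup.commutator_le_frattini hG
  have hn2 : 2 ≤ n := by
    have := Nat.le_of_dvd (pow_pos hp.pos n) (hn ▸ hUi ▸ Subgroup.index_dvd_of_le hU)
    exact (Nat.pow_le_pow_iff_right hp.one_lt).1 this
  by_contra hcon
  push Not at hcon
  set X := Finset.univ.filter fun w : G →* ℂˣ => frattini G ≤ w.ker ∧ w ≠ 1 with hX
  -- upper bound
  have hupper : ∀ v, v ∉ U →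
      (X.filter fun w => Subgroup.centralizer ({v} : Set G) ≤ w.ker).card ≤ p ^ (n - 2) - 1 := by
    intro v hv
    set D := Subgroup.centralizer ({v} : Set G) ⊔ frattini G with hD
    have h1 : (X.filter fun w => Subgroup.centralizer ({v} : Set G) ≤ w.ker) =
        (Finset.univ.filter fun w : G →* ℂˣ => D ≤ w.ker).erase 1 := by
      ext w
      simp only [hX, Finset.mem_filter, Finset.mem_univ, true_and, Finset.mem_erase, hD, sup_le_iff]
      tauto
    rw [h1, Finset.card_erase_of_mem (by simp [MonoidHom.ker_one]), ← Fintype.card_subtype,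
      ← Nat.card_eq_fintype_card, card_hom_over D (hΦ.trans le_sup_right)]
    obtain ⟨k, hk⟩ := hG.index D
    have := hcon v hv
    rw [hk] at this
    have hk2 : k ≤ n - 2 := by
      have := (Nat.pow_lt_pow_iff_right hp.one_lt).1 this
      omega
    have := Nat.pow_le_pow_right hp.pos hk2
    omega
  -- lower bound for each character
  set N : (G →* ℂˣ) → ℕ := fun w => (Finset.univ.filter fun v : G =>
    v ∉ U ∧ Subgroup.centralizer ({v} : Set G) ≤ w.ker).card with hN
  have hpos : ∀ w ∈ X, U ≤ w.ker → 0 < N w := by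
    intro w hw hUw
    obtain ⟨hw1, hw2⟩ := (Finset.mem_filter.1 hw).2
    have hidx := index_ker hG hw1 hw2
    have hco : IsCoatom w.ker := isCoatom_of_index hidx
    obtain ⟨R, hR, hRv⟩ := exists_bad_subgroup hco (hmin _ hco) inferInstance
    have hUne : U < w.ker := lt_of_le_of_ne hUw fun e => by
      rw [e, hidx] at hUi
      exact absurd hUi (Nat.ne_of_lt (by rw [sq]; exact lt_mul_self hp.one_lt))
    obtain ⟨x, hx, hxR⟩ := SetLike.exists_of_lt hR
    obtain ⟨y, hy, hyU⟩ := SetLike.exists_of_lt hUne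
    obtain ⟨v, hv, hvR, hvU⟩ : ∃ v ∈ w.ker, v ∉ R ∧ v ∉ U := by
      by_cases h1 : x ∈ U
      · by_cases h2 : y ∈ R
        · exact ⟨x * y, mul_mem hx hy,
            fun h => hxR (by simpa using mul_mem h (inv_mem h2)),
            fun h => hyU (by simpa using mul_mem (inv_mem h1) h)⟩
        · exact ⟨y, hy, h2, hyU⟩
      · exact ⟨x, hx, hxR, h1⟩
    exact Finset.card_pos.2 ⟨v, Finset.mem_filter.2 ⟨Finset.mem_univ _, hvU, hRv v hv hvR⟩⟩
  have hlower : ∀ w ∈ X, ¬ U ≤ w.ker → Nat.card G * (p ^ 2 - 1) ≤ p ^ 4 * N w := by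
    intro w hw hUw
    obtain ⟨hw1, hw2⟩ := (Finset.mem_filter.1 hw).2
    have hidx := index_ker hG hw1 hw2
    have hco : IsCoatom w.ker := isCoatom_of_index hidx
    obtain ⟨R, hR, hRv⟩ := exists_bad_subgroup hco (hmin _ hco) inferInstance
    have htop : U ⊔ w.ker = ⊤ := hco.2 _ (lt_of_le_of_ne le_sup_right fun e => hUw (le_sup_left.trans_eq e.symm))
    haveI : U.Normal := PGroup.normal_of_commutator_le (hΦ.trans hU)
    have hrel : U.relIndex w.ker = p ^ 2 := by
      rw [← Subgroup.relIndex_sup_right (H := w.ker) (K := U), sup_comm, htop,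
        Subgroup.relIndex_top_right, hUi]
    set H := w.ker with hH
    have hHU : Nat.card ↥(H ⊓ U : Subgroup G) * p ^ 2 = Nat.card H := by
      have e := Subgroup.relIndex_mul_relIndex ⊥ (U ⊓ H) H bot_le inf_le_right
      rw [Subgroup.inf_relIndex_right, Subgroup.relIndex_bot_left, Subgroup.relIndex_bot_left,
        hrel, inf_comm] at e
      exact e
    have hRU : Nat.card R ≤ Nat.card ↥(R ⊓ U : Subgroup G) * p ^ 2 := by
      rw [← Subgroup.relIndex_bot_left (H := R ⊓ U), ← Subgroup.relIndex_bot_left (H := R),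
        ← Subgroup.relIndex_mul_relIndex ⊥ (R ⊓ U) R bot_le inf_le_left]
      refine Nat.mul_le_mul_left _ ?_
      rw [inf_comm, Subgroup.inf_relIndex_right, ← hUi, ← Subgroup.relIndex_top_right]
      exact Subgroup.relIndex_le_of_le_right le_top (by
        rw [Subgroup.relIndex_top_right]; exact Subgroup.index_ne_zero_of_finite)
    have hRH : Nat.card R * p ≤ Nat.card H := by
      rw [← Subgroup.relIndex_bot_left (H := R), ← Subgroup.relIndex_bot_left (H := H),
        ← Subgroup.relIndex_mul_relIndex ⊥ R H bot_le hR.le]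
      refine Nat.mul_le_mul_left _ ?_
      obtain ⟨m, hm⟩ := (hG.to_subgroup H).index (R.subgroupOf H)
      replace hm : R.relIndex H = p ^ m := hm
      rw [hm]
      refine Nat.le_self_pow ?_ p
      intro h0
      rw [h0, pow_zero, Subgroup.relIndex_eq_one] at hm
      exact hR.not_ge hm
    -- counting elements
    have hsub : (Finset.univ.filter fun v : G => v ∈ H ∧ v ∉ U) ⊆
        (Finset.univ.filter fun v : G => v ∉ U ∧ Subgroup.centralizer ({v} : Set G) ≤ H) ∪
          (Finset.univ.filter fun v : G => v ∈ R ∧ v ∉ U) := by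
      intro v hv
      simp only [Finset.mem_filter, Finset.mem_univ, true_and, Finset.mem_union] at hv ⊢
      by_cases hvR : v ∈ R
      · exact Or.inr ⟨hvR, hv.2⟩
      · exact Or.inl ⟨hv.2, hRv v hv.1 hvR⟩
    have hcard : ∀ S : Subgroup G,
        (Finset.univ.filter fun v : G => v ∈ S ∧ v ∉ U).card + Nat.card ↥(S ⊓ U : Subgroup G) =
          Nat.card S := by
      intro S
      have h1 : (Finset.univ.filter fun v : G => v ∈ S ⊓ U).card = Nat.card ↥(S ⊓ U : Subgroup G) := by
        rw [← Fintype.card_subtype, Nat.card_eq_fintype_card]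
      have h2 : (Finset.univ.filter fun v : G => v ∈ S).card = Nat.card S := by
        rw [← Fintype.card_subtype, Nat.card_eq_fintype_card]
      rw [← h1, ← h2, ← Finset.card_union_of_disjoint]
      · congr 1
        ext v
        simp only [Finset.mem_filter, Finset.mem_univ, true_and, Finset.mem_union, Subgroup.mem_inf]
        tauto
      · rw [Finset.disjoint_filter]
        exact fun v _ h h' => h.2 h'.2
    have h3 := (Finset.card_le_card hsub).trans (Finset.card_union_le _ _)
    have h4 := hcard H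
    have h5 := hcard R
    have hG' : Nat.card H * p = Nat.card G := by rw [← hidx, Subgroup.card_mul_index]
    change _ ≤ p ^ 4 * (Finset.univ.filter fun v : G =>
      v ∉ U ∧ Subgroup.centralizer ({v} : Set G) ≤ H).card
    set a := (Finset.univ.filter fun v : G => v ∉ U ∧ Subgroup.centralizer ({v} : Set G) ≤ H).card
    set hu := (Finset.univ.filter fun v : G => v ∈ H ∧ v ∉ U).card
    set ru := (Finset.univ.filter fun v : G => v ∈ R ∧ v ∉ U).card
    obtain ⟨q, hq⟩ : ∃ q, p ^ 2 = q + 1 := ⟨p ^ 2 - 1, by have := Nat.one_le_pow 2 p hp.pos; omega⟩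
    have h4' : hu + Nat.card ↥(H ⊓ U : Subgroup G) = Nat.card H := by convert hcard H
    have h5' : ru + Nat.card ↥(R ⊓ U : Subgroup G) = Nat.card R := by convert hcard R
    rw [hq] at hHU hRU ⊢
    rw [Nat.add_sub_cancel, ← hG']
    have hp2 : 2 ≤ p := hp.two_le
    have e1 : hu * (q + 1) = Nat.card H * q := by
      have := congrArg (· * (q + 1)) h4'
      simp only [add_mul] at this
      linarith
    have e2 : ru * (q + 1) ≤ Nat.card R * q := by
      have := congrArg (· * (q + 1)) h5'
      simp only [add_mul] at this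
      linarith
    have e3 : Nat.card H * q * p ≤ p * (q + 1) * a + Nat.card H * q := by
      have t1 := Nat.mul_le_mul_right (p * (q + 1)) h3
      have t2 := Nat.mul_le_mul_right q hRH
      have t3 := Nat.mul_le_mul_right p e2
      have t4 := congrArg (· * p) e1
      linarith
    have e4 : Nat.card H * q ≤ p * (q + 1) * a := by
      have t1 := Nat.mul_le_mul_left (Nat.card H * q) hp2
      linarith
    calc Nat.card H * p * q = (Nat.card H * q) * p := by ring
      _ ≤ (p * (q + 1) * a) * p := Nat.mul_le_mul_right _ e4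
      _ = p ^ 2 * (q + 1) * a := by ring
      _ = p ^ 4 * a := by rw [← hq]; ring
  -- compare
  have hswap : ∑ w ∈ X, N w =
      ∑ v ∈ Finset.univ.filter (fun v : G => v ∉ U),
        (X.filter fun w => Subgroup.centralizer ({v} : Set G) ≤ w.ker).card := by
    simp only [hN, Finset.card_filter]
    rw [Finset.sum_comm, Finset.sum_filter]
    refine Finset.sum_congr rfl fun v _ => ?_
    by_cases hv : v ∈ U <;> simp [hv]
  have hUc : (Finset.univ.filter (fun v : G => v ∉ U)).card + Nat.card U = Nat.card G := by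
    have h1 : (Finset.univ.filter (fun v : G => v ∈ U)).card = Nat.card U := by
      rw [← Fintype.card_subtype, Nat.card_eq_fintype_card]
    rw [← h1, Nat.card_eq_fintype_card (α := G), ← Finset.card_univ, add_comm]
    convert Finset.card_filter_add_card_filter_not (s := (Finset.univ : Finset G)) (fun v : G => v ∈ U)
  have hle : ∑ w ∈ X, N w ≤ (Finset.univ.filter (fun v : G => v ∉ U)).card * (p ^ (n - 2) - 1) := by
    rw [hswap, ← smul_eq_mul, ← Finset.sum_const]
    exact Finset.sum_le_sum fun v hv => hupper v (Finset.mem_filter.1 hv).2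
  set X1 := X.filter fun w => ¬ U ≤ w.ker
  set X2 := X.filter fun w => U ≤ w.ker
  have hcardX : X2.card + X1.card = p ^ n - 1 := by
    rw [Finset.card_filter_add_card_filter_not]
    have h1 : X = (Finset.univ.filter fun w : G →* ℂˣ => frattini G ≤ w.ker).erase 1 := by
      ext w
      simp only [hX, Finset.mem_filter, Finset.mem_univ, true_and, Finset.mem_erase]
      tauto
    rw [h1, Finset.card_erase_of_mem (by simp [MonoidHom.ker_one]), ← Fintype.card_subtype,
      ← Nat.card_eq_fintype_card, card_hom_over _ hΦ, hn]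
  have hcardX2 : X2.card = p ^ 2 - 1 := by
    have h1 : X2 = (Finset.univ.filter fun w : G →* ℂˣ => U ≤ w.ker).erase 1 := by
      ext w
      simp only [X2, hX, Finset.mem_filter, Finset.mem_univ, true_and, Finset.mem_erase]
      exact ⟨fun h => ⟨h.1.2, h.2⟩, fun h => ⟨⟨hU.trans h.2, h.1⟩, h.2⟩⟩
    rw [h1, Finset.card_erase_of_mem (by simp [MonoidHom.ker_one]), ← Fintype.card_subtype,
      ← Nat.card_eq_fintype_card, card_hom_over _ (hΦ.trans hU), hUi]
  have hp2 : 4 ≤ p ^ 2 := by
    calc 4 = 2 ^ 2 := rfl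
      _ ≤ p ^ 2 := Nat.pow_le_pow_left hp.two_le 2
  have hsum : ∑ w ∈ X2, N w + ∑ w ∈ X1, N w = ∑ w ∈ X, N w :=
    Finset.sum_filter_add_sum_filter_not X _ _
  have hX2 : 0 < ∑ w ∈ X2, N w := by
    obtain ⟨w, hw⟩ : X2.Nonempty := Finset.card_pos.1 (by omega)
    exact (hpos w (Finset.mem_filter.1 hw).1 (Finset.mem_filter.1 hw).2).trans_le
      (Finset.single_le_sum (fun _ _ => Nat.zero_le _) hw)
  have hX1 : X1.card * (Nat.card G * (p ^ 2 - 1)) ≤ p ^ 4 * ∑ w ∈ X1, N w := by
    rw [Finset.mul_sum, ← smul_eq_mul, ← Finset.sum_const]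
    exact Finset.sum_le_sum fun w hw =>
      hlower w (Finset.mem_filter.1 hw).1 (Finset.mem_filter.1 hw).2
  have hUcard : Nat.card U * p ^ 2 = Nat.card G := by rw [← hUi, Subgroup.card_mul_index]
  obtain ⟨m, rfl⟩ : ∃ m, n = m + 2 := ⟨n - 2, by omega⟩
  rw [Nat.add_sub_cancel] at hle
  obtain ⟨r, hr⟩ : ∃ r, p ^ m = r + 1 := ⟨p ^ m - 1, by have := Nat.one_le_pow m p hp.pos; omega⟩
  obtain ⟨q, hq⟩ : ∃ q, p ^ 2 = q + 1 := ⟨p ^ 2 - 1, by omega⟩
  have hx1 : X1.card = r * (q + 1) := by
    have : p ^ (m + 2) = (r + 1) * (q + 1) := by rw [pow_add, hr, hq]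
    rw [hcardX2, hq, this] at hcardX
    simp only [add_mul, one_mul] at hcardX
    omega
  rw [hx1, hq, Nat.add_sub_cancel, show p ^ 4 = (q + 1) * (q + 1) by rw [← hq]; ring] at hX1
  rw [hr, Nat.add_sub_cancel] at hle
  rw [hq] at hUcard
  set g := Nat.card G
  set c := (Finset.univ.filter (fun v : G => v ∉ U)).card
  have hc : c * (q + 1) = g * q := by nlinarith
  nlinarith

end Cfsg.Agent.VaughanLee
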